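import Cfsg.Agent.H3.NotSq
import Cfsg.Agent.H2.CommInv

/-!
# `L_n(2)`, `n ≥ 3`, has two noncommuting involutions in a 2-subgroup (helper3)
-/

set_option autoImplicit false

namespace Cfsg.Agent.H3.NotComm

open Matrix Cfsg.Agent.TitsThree.KSideA Cfsg.Agent.H2
open scoped commutatorElement

theorem sl_not_commInv {n : ℕ} {F : Type*} [Field F] [CharP F 2] {a b c : Fin n} (hab : a ≠ b) (hbc : b ≠ c)
    (hac : a ≠ c) : ¬ CommInv (SpecialLinearGroup (Fin n) F) := by
  intro h
  have h2 : (1 : F) + 1 = 0 := CharTwo.add_self_eq_zero 1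
  have hsq : ∀ i j : Fin n, tv i j (1 : F) * tv i j 1 = 1 := fun i j => by
    rw [← tv_add, h2, tv_zero]
  have hinv : ∀ i j : Fin n, (tv i j (1 : F))⁻¹ = tv i j 1 := fun i j => by
    rw [inv_eq_iff_mul_eq_one, hsq]
  have h3 := tv_comm hab hbc hac (1 : F) 1
  rw [mul_one] at h3
  have hC : (tv a b (1 : F) * tv b c 1) ^ 2 = tv a c 1 := by
    rw [commutatorElement_def, hinv, hinv] at h3
    rw [pow_two, ← h3]
    group
  have h4 := h.comm (hsq a b) (hsq b c) (k := 2) (by
    rw [show 2 ^ 2 = 2 * 2 by norm_num, pow_mul, hC, pow_two, hsq])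
  rw [commutatorElement_eq_one_iff_mul_comm.2 h4] at h3
  have h5 : tv a c (0 : F) = tv a c 1 := by rw [tv_zero]; exact h3
  exact zero_ne_one (Nodes.RGDTypeA.tv_inj hac h5)

theorem psl_not_commInv {m : ℕ} {F : Type*} [Field F] [Fintype F] [CharP F 2] (hF : Fintype.card F = 2) :
    ¬ CommInv (ProjectiveSpecialLinearGroup (Fin (m + 3)) F) := by
  intro h
  let e : SpecialLinearGroup (Fin (m + 3)) F ≃* ProjectiveSpecialLinearGroup (Fin (m + 3)) F :=
    MulEquiv.ofBijective (Nodes.RGDTypeA.pr (m + 2) F) ⟨H1.RowPSLFive.pr_injective hF, Nodes.RGDTypeA.pr_surjective⟩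
  exact sl_not_commInv (n := m + 3) (F := F) (a := ⟨0, by omega⟩) (b := ⟨1, by omega⟩) (c := ⟨2, by omega⟩)
    (fun h => absurd (congrArg Fin.val h) (by norm_num)) (fun h => absurd (congrArg Fin.val h) (by norm_num))
    (fun h => absurd (congrArg Fin.val h) (by norm_num)) (CommInv.congr e h)

end Cfsg.Agent.H3.NotComm
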