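import Mathlib
import Cfsg.Prelude.Def_Quasithin
import Cfsg.Agent.TwoFusion.PerfCore
import Cfsg.Agent.QTUniq.CComp
import Cfsg.Agent.H1.Tight

/-!
# `𝒞`-components and `ℒ(G, T)` modulo a normal 2-subgroup (helper3)

* `map_mem_calC` : the image of a `𝒞`-component under an epimorphism with solvable kernel is a `𝒞`-component;
* `perf_comap` : `L = perf (φ⁻¹(φ L))`, so `L` is normalised by everything whose image normalises `φ L`;
* `Down` / `down` : for `L ∈ ℒ(G, T)`, `L, T ≤ M` and `ψ : M → Q` onto with kernel a 2-group: the image.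
-/

set_option autoImplicit false

namespace Cfsg.Agent.H3.QuotC

open Subgroup Cfsg Cfsg.Agent.TwoFusion.PerfCore Cfsg.Agent.QTUniq.CComp

variable {H Q : Type*} [Group H] [Group Q]

theorem solvable_ker_sub (φ : H →* Q) (hker : Group.IsSolvable φ.ker) {L : Subgroup H} (h : L.map φ = ⊥) :
    Group.IsSolvable L := by
  rw [Subgroup.map_eq_bot_iff] at h
  exact Group.isSolvable_of_isSolvable_injective (f := inclusion h) (inclusion_injective h)

/-- **The image of a `𝒞`-component** under an epimorphism with solvable kernel. -/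
theorem map_mem_calC [Finite H] (φ : H →* Q) (hφ : Function.Surjective φ) (hker : Group.IsSolvable φ.ker)
    {L : Subgroup H} (hL : L ∈ calC H) : L.map φ ∈ calC Q := by
  obtain ⟨h1, h2, h3, h4⟩ := hL
  refine ⟨?_, map_perfect h2 φ, h3.map hφ, ?_⟩
  · intro h
    exact h1 (eq_bot_of_perfect_of_solvable h2 (solvable_ker_sub φ hker h))
  · rintro K hK ⟨h5, h6, h7⟩
    set K1 : Subgroup H := L ⊓ K.comap φ with hK1
    have hmap : K1.map φ = K := by
      apply le_antisymm
      · rintro _ ⟨x, hx, rfl⟩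
        exact hx.2
      · intro y hy
        obtain ⟨x, hx, rfl⟩ := hK.le hy
        exact ⟨x, ⟨hx, hy⟩, rfl⟩
    have hKc : (K.comap φ).IsSubnormal := h7.comap φ
    have hK1L : (K1.subgroupOf L).IsSubnormal := by
      have e : K1.subgroupOf L = (K.comap φ).subgroupOf L := by
        rw [hK1, inf_subgroupOf_left]
      rw [e]
      exact hKc.comap _
    have hK1s : K1.IsSubnormal := hK1L.trans inf_le_left h3
    have hps : (perf K1).IsSubnormal := by
      refine subnormal_trans (perf_le K1) ?_ hK1s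
      have h8 : ((perf K1).subgroupOf K1).Normal := by
        rw [Subgroup.normal_subgroupOf_iff_le_normalizer (perf_le K1)]
        exact le_normalizer.trans (normalizer_le_normalizer_perf K1)
      exact h8.isSubnormal
    have hpm : (perf K1).map φ = K := by
      rw [map_perf, hmap, perf_eq_self h6]
    refine h4 (perf K1) (lt_of_le_of_ne ((perf_le K1).trans inf_le_left) ?_) ⟨?_, perf_perfect K1, hps⟩
    · intro h
      apply hK.ne
      rw [← hpm, h]
    · intro h
      apply h5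
      rw [← hpm, h, Subgroup.map_bot]

/-- a perfect subnormal subgroup `L` is the perfect core of `L · ker φ` -/
theorem perf_comap (φ : H →* Q) (hker : Group.IsSolvable φ.ker) {L : Subgroup H} (hLp : ⁅L, L⁆ = L)
    (hLs : L.IsSubnormal) : perf ((L.map φ).comap φ) = L := by
  set K0 : Subgroup H := (L.map φ).comap φ with hK0
  have hLK : L ≤ K0 := le_comap_map φ L
  refine le_antisymm ?_ (le_perf hLK hLp)
  have hkK : φ.ker ≤ K0 := by
    intro x hx
    rw [hK0, mem_comap, MonoidHom.mem_ker.1 hx]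
    exact one_mem _
  have hsup : L.subgroupOf K0 ⊔ φ.ker.subgroupOf K0 = ⊤ := by
    rw [← subgroupOf_sup hLK hkK, subgroupOf_eq_top]
    intro x hx
    obtain ⟨l, hl, he⟩ := (show φ x ∈ L.map φ from hx)
    have h2 : l⁻¹ * x ∈ φ.ker := by rw [MonoidHom.mem_ker, map_mul, map_inv, he, inv_mul_cancel]
    have h3 : x = l * (l⁻¹ * x) := by group
    rw [h3]
    exact mul_mem_sup hl h2
  have hks : Group.IsSolvable ↥(φ.ker.subgroupOf K0) :=
    Group.isSolvable_of_isSolvable_injective (f := (subgroupOfEquivOfLe hkK).toMonoidHom)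
      (subgroupOfEquivOfLe hkK).injective
  have hpK : perf K0 ≤ K0 := perf_le K0
  have hRp : ⁅(perf K0).subgroupOf K0, (perf K0).subgroupOf K0⁆ = (perf K0).subgroupOf K0 := by
    apply map_injective K0.subtype_injective
    rw [map_commutator, subgroupOf_map_subtype, inf_eq_left.2 hpK]
    exact perf_perfect K0
  have h1 := H1.Tight.le_of_perfect (φ.ker.subgroupOf K0) hks hRp hLs.subgroupOf hsup
  intro x hx
  exact mem_subgroupOf.1 (h1 (show (⟨x, hpK hx⟩ : K0) ∈ _ from mem_subgroupOf.2 hx))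

theorem comap_normalizer_le (φ : H →* Q) (hker : Group.IsSolvable φ.ker) {L : Subgroup H} (hLp : ⁅L, L⁆ = L)
    (hLs : L.IsSubnormal) {x : H} (hx : φ x ∈ normalizer ((L.map φ : Subgroup Q) : Set Q)) :
    x ∈ normalizer (L : Set H) := by
  have h1 : x ∈ normalizer (((L.map φ).comap φ : Subgroup H) : Set H) := by
    rw [mem_normalizer_iff] at hx ⊢
    intro y
    rw [mem_comap, mem_comap, map_mul, map_mul, map_inv]
    exact hx (φ y)
  have h2 := normalizer_le_normalizer_perf _ h1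
  rwa [perf_comap φ hker hLp hLs] at h2

/-- `L / O_2(L) ≃ φ(L) / O_2(φ(L))`, the kernel of `φ` being a 2-group -/
theorem nonempty_quot (p : ℕ) [Fact p.Prime] [Finite H] (φ : H →* Q) (hker : IsPGroup p φ.ker) (L : Subgroup H) :
    Nonempty ((L ⧸ pCore p L) ≃* (↥(L.map φ) ⧸ pCore p ↥(L.map φ))) := by
  let f : L →* ↥(L.map φ) := φ.subgroupMap L
  have hf : Function.Surjective f := φ.subgroupMap_surjective L
  have hfin : Finite ↥(L.map φ) := Finite.of_surjective f hf
  let g : L →* (↥(L.map φ) ⧸ pCore p ↥(L.map φ)) := (QuotientGroup.mk' _).comp f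
  have hg : Function.Surjective g := (QuotientGroup.mk'_surjective _).comp hf
  have hfk : IsPGroup p f.ker := by
    let g : ↥f.ker →* ↥φ.ker := (L.subtype.comp f.ker.subtype).codRestrict φ.ker (fun x => by
      have := congrArg Subtype.val (MonoidHom.mem_ker.1 x.2)
      exact MonoidHom.mem_ker.2 this)
    refine hker.of_injective g ?_
    intro x y hxy
    have := congrArg Subtype.val hxy
    exact Subtype.ext (Subtype.ext this)
  have hk : g.ker = pCore p L := by
    apply le_antisymm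
    · refine Cfsg.Agent.Lib.Cores.le_pCore inferInstance ?_
      have e : g.ker = (pCore p ↥(L.map φ)).comap f := by
        ext x
        rw [MonoidHom.mem_ker, mem_comap]
        exact QuotientGroup.eq_one_iff (f x)
      rw [e]
      exact (Cfsg.Agent.Lib.Cores.pCore_isPGroup p).comap_of_ker_isPGroup f hfk
    · intro x hx
      rw [MonoidHom.mem_ker]
      refine (QuotientGroup.eq_one_iff (f x)).2 ?_
      have h1 : (pCore p L).map f ≤ pCore p ↥(L.map φ) :=
        Cfsg.Agent.Lib.Cores.le_pCore ((Cfsg.Agent.Lib.Cores.pCore_normal p).map _ hf)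
          ((Cfsg.Agent.Lib.Cores.pCore_isPGroup p).map _)
      exact h1 ⟨x, hx, rfl⟩
  exact ⟨(QuotientGroup.quotientMulEquivOfEq hk.symm).trans (QuotientGroup.quotientKerEquivOfSurjective g hg)⟩

section calL

variable {G : Type*} [Group G] [Finite G]

/-- **The image of a member of `ℒ(G, T)`** in a quotient of an overgroup by a normal 2-subgroup. -/
structure Down (T L M : Subgroup G) (ψ : M →* Q) (S L' : Subgroup Q) : Prop where
  comp : L'.subgroupOf (L' ⊔ S) ∈ calC ↥(L' ⊔ S)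
  syl : ∃ P : Sylow 2 ↥(L' ⊔ S), (P : Subgroup ↥(L' ⊔ S)) = S.subgroupOf (L' ⊔ S)
  quot : Nonempty ((L ⧸ pCore 2 L) ≃* (L' ⧸ pCore 2 L'))
  norm : S ≤ normalizer (L' : Set Q) → T ≤ normalizer (L : Set G)

omit [Finite G] in
theorem Down.mem {T L M : Subgroup G} {ψ : M →* Q} {S L' : Subgroup Q} (h : Down T L M ψ S L')
    (hO : pCore 2 ↥(L' ⊔ S) ≠ ⊥) : L' ∈ calL S := ⟨h.comp, h.syl, hO⟩

theorem down {T : Subgroup G} {L M : Subgroup G} (hL : L ∈ calL T) (hTM : T ≤ M)
    (hLM : L ≤ M) (ψ : M →* Q) (hker : IsPGroup 2 ψ.ker) :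
    Down T L M ψ ((T.subgroupOf M).map ψ) ((L.subgroupOf M).map ψ) := by
  have h2 : Fact (Nat.Prime 2) := ⟨Nat.prime_two⟩
  have hHM : L ⊔ T ≤ M := sup_le hLM hTM
  set H : Subgroup G := L ⊔ T with hH
  set S : Subgroup Q := (T.subgroupOf M).map ψ with hS
  set L' : Subgroup Q := (L.subgroupOf M).map ψ with hL'
  have hH' : L' ⊔ S = (H.subgroupOf M).map ψ := by
    rw [hL', hS, ← Subgroup.map_sup, ← subgroupOf_sup hLM hTM]
  obtain ⟨φ, hφ, hφv⟩ : ∃ φ : ↥H →* ↥(L' ⊔ S), Function.Surjective φ ∧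
      ∀ x : ↥H, ((φ x : ↥(L' ⊔ S)) : Q) = ψ ⟨x, hHM x.2⟩ := by
    refine ⟨(ψ.comp (inclusion hHM)).codRestrict _ (fun x => ?_), ?_, fun x => rfl⟩
    · rw [hH']
      exact ⟨⟨x, hHM x.2⟩, mem_subgroupOf.2 x.2, rfl⟩
    · rintro ⟨y, hy⟩
      have hy' := hy
      rw [hH'] at hy'
      obtain ⟨x, hx, hxy⟩ := hy'
      exact ⟨⟨x, mem_subgroupOf.1 hx⟩, Subtype.ext hxy⟩
  have hkφ : IsPGroup 2 φ.ker := by
    let g : ↥φ.ker →* ↥ψ.ker := ((inclusion hHM).comp φ.ker.subtype).codRestrict ψ.ker (fun x => by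
      have := congrArg Subtype.val (MonoidHom.mem_ker.1 x.2)
      rw [hφv] at this
      exact MonoidHom.mem_ker.2 this)
    refine hker.of_injective g ?_
    intro x y hxy
    have := congrArg Subtype.val hxy
    exact Subtype.ext (inclusion_injective hHM this)
  have hsol : Group.IsSolvable φ.ker := by
    have := hkφ.isNilpotent
    infer_instance
  have hmapL : ∀ A : Subgroup G, A ≤ H → (A.subgroupOf H).map φ = ((A.subgroupOf M).map ψ).subgroupOf (L' ⊔ S) := by
    intro A hA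
    ext ⟨y, hy⟩
    constructor
    · rintro ⟨x, hx, hxy⟩
      refine mem_subgroupOf.2 ⟨⟨x, hHM x.2⟩, mem_subgroupOf.2 (mem_subgroupOf.1 hx), ?_⟩
      have := congrArg Subtype.val hxy
      rw [hφv] at this
      exact this
    · intro h
      obtain ⟨x, hx, hxy⟩ := mem_subgroupOf.1 h
      have hx' := mem_subgroupOf.1 hx
      refine ⟨⟨x, hA hx'⟩, mem_subgroupOf.2 hx', Subtype.ext ?_⟩
      rw [hφv]
      exact hxy
  obtain ⟨hc, ⟨P, hP⟩, -⟩ := hL
  have hLs := hc.2.2.1
  have hLp := hc.2.1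
  refine ⟨?_, ?_, ?_, ?_⟩
  · rw [← hmapL L le_sup_left]
    exact map_mem_calC φ hφ hsol hc
  · refine ⟨P.mapSurjective hφ, ?_⟩
    rw [Sylow.coe_mapSurjective, hP]
    exact hmapL T le_sup_right
  · obtain ⟨e1⟩ := H1.Tight.quot_subgroupOf_equiv 2 (le_sup_left : L ≤ L ⊔ T)
    obtain ⟨e2⟩ := nonempty_quot 2 φ hkφ (L.subgroupOf H)
    have hfin : Finite ↥(L' ⊔ S) := Finite.of_surjective φ hφ
    obtain ⟨e3⟩ := H1.Tight.quot_subgroupOf_equiv 2 (le_sup_left : L' ≤ L' ⊔ S)
    have e4 : (↥((L.subgroupOf H).map φ) ⧸ pCore 2 ↥((L.subgroupOf H).map φ)) ≃*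
        (↥(L'.subgroupOf (L' ⊔ S)) ⧸ pCore 2 ↥(L'.subgroupOf (L' ⊔ S))) := by
      rw [hmapL L le_sup_left]
    exact ⟨((e1.trans e2).trans e4).trans e3.symm⟩
  · intro hn t ht
    have h3 : (⟨t, (le_sup_right : T ≤ L ⊔ T) ht⟩ : ↥H) ∈ normalizer ((L.subgroupOf H : Subgroup H) : Set H) := by
      refine comap_normalizer_le φ hsol hLp hLs ?_
      rw [hmapL L le_sup_left]
      have h4 : ((φ ⟨t, (le_sup_right : T ≤ L ⊔ T) ht⟩ : ↥(L' ⊔ S)) : Q) ∈ normalizer (L' : Set Q) := by
        apply hn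
        rw [hφv]
        exact ⟨⟨t, hTM ht⟩, mem_subgroupOf.2 ht, rfl⟩
      rw [mem_normalizer_iff] at h4 ⊢
      intro y
      rw [mem_subgroupOf, mem_subgroupOf]
      exact h4 y
    rw [mem_normalizer_iff] at h3 ⊢
    intro y
    constructor
    · intro hy
      exact (h3 ⟨y, (le_sup_left : L ≤ L ⊔ T) hy⟩).1 hy
    · intro hy
      have hyH : y ∈ H := by
        have h5 : t * y * t⁻¹ ∈ H := (le_sup_left : L ≤ L ⊔ T) hy
        have h6 : t ∈ H := (le_sup_right : T ≤ L ⊔ T) ht
        have e : y = t⁻¹ * (t * y * t⁻¹) * t := by group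
        rw [e]
        exact mul_mem (mul_mem (inv_mem h6) h5) h6
      exact (h3 ⟨y, hyH⟩).2 hy

end calL

end Cfsg.Agent.H3.QuotC
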