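import Mathlib
import Cfsg.Agent.H1.RgdRow
import Cfsg.Agent.H1.RowPSLFive
import Cfsg.Agent.H3.QuotC

/-!
# Overgroups of `U` in a group with a root group datum: proper ones have a normal `p`-subgroup (helper3)
-/

set_option autoImplicit false
set_option linter.unusedSectionVars false

namespace Cfsg.Agent.H3.RgdTop

open CoxeterSystem Cfsg.Agent.ChevalleyStructure.CoxeterGeom Cfsg.Agent.Tits.Roots Cfsg.Agent.Tits.Core
  Cfsg.Agent.Tits.RootComb Cfsg.Agent.Tits.Exchange Cfsg.Agent.Nodes.Reps Cfsg.Agent.Nodes.BNOf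
  Cfsg.Agent.Nodes.StabComb Cfsg.Agent.Nodes.Bruhat Cfsg.Agent.Nodes.OppDec Cfsg.Agent.Nodes.LeviDec
  Cfsg.Agent.H1.Over
open Cfsg

variable {I W Y : Type*} [Fintype I] [DecidableEq I] [Group W] [Group Y] {M : CoxeterMatrix I}
  {cs : CoxeterSystem M W} {A : I → I → ℤ} {h : IsCartan M A} {p : ℕ} {T : Subgroup Y} {n : I → Y}
  {X : (I → ℤ) → Subgroup Y}

theorem core_ne_bot [Finite W] [Finite Y] [Fact p.Prime] (R : RGD cs h p T n X) (hG : Nodes.RGDLib.G1 cs h X = ⊤)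
    {H : Subgroup Y} (hU : RGD.Sup X (RGD.Pos cs h) ≤ H) (hne : H ≠ ⊤) : pCore p H ≠ ⊥ := by
  have hGG : GG cs h T X = ⊤ := KFacts.RgdFilt.GG_eq_top hG
  have hle := le_PJ R hU (hGG ▸ le_top : H ≤ GG cs h T X)
  set J := JH X H with hJ
  have hJn : J ≠ Set.univ := by
    intro h1
    apply hne
    rw [eq_top_iff, ← hG]
    have h2 := rootsJ_le R hU
    rw [← hJ, h1] at h2
    refine le_trans (RGD.Sup_mono fun x hx => ?_) h2
    exact ⟨hx, fun i hi => absurd (Set.mem_univ i) hi⟩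
  obtain ⟨i, hi⟩ := (Set.ne_univ_iff_exists_notMem J).1 hJn
  have h1 : X (sr i) ≤ VJ cs h X J := RGD.le_Sup (S := NotJ cs h J) ⟨isRoot_sr cs h i, sr_nonneg i, i, hi, by
    rw [sr_self]; decide⟩
  have hVH : VJ cs h X J ≤ H := (VJ_le_U J).trans hU
  have hVn : ((VJ cs h X J).subgroupOf H).Normal :=
    Subgroup.normal_subgroupOf_iff_le_normalizer hVH |>.2 (hle.trans (PJ_le_normalizer_VJ R J))
  have hVp : IsPGroup p ↥((VJ cs h X J).subgroupOf H) := (H1.RgdRow.VJ_isPGroup R J).comap_subtype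
  have h2 := Lib.Cores.le_pCore hVn hVp
  intro h3
  rw [h3, le_bot_iff, Subgroup.subgroupOf_eq_bot] at h2
  obtain ⟨u, hu, hu1⟩ := exists_ne_one R i
  exact hu1 (Subgroup.mem_bot.1 (h2.le_bot ⟨h1 hu, hVH (h1 hu)⟩))

theorem eq_bot_of_subnormal {Y : Type*} [Group Y] [hs : IsSimpleGroup Y] {L : Subgroup Y} (h : L.IsSubnormal)
    (hne : L ≠ ⊤) : L = ⊥ := by
  induction h with
  | top => exact absurd rfl hne
  | step L K hLK hK hN ih =>
    by_cases hKt : K = ⊤
    · subst hKt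
      have h1 : L.Normal := by
        rw [← Subgroup.normalizer_eq_top_iff, eq_top_iff]
        exact (Subgroup.normal_subgroupOf_iff_le_normalizer hLK).1 hN
      rcases h1.eq_bot_or_eq_top with h2 | h2
      · exact h2
      · exact absurd h2 hne
    · rw [ih hKt] at hLK
      exact le_bot_iff.1 hLK

theorem pCore_map {G K : Type*} [Group G] [Group K] (e : G ≃* K) (p : ℕ) (H : Subgroup G) (h : pCore p H = ⊥) :
    pCore p ↥(H.map e.toMonoidHom) = ⊥ := by
  rw [← Lib.Cores.map_equiv_pCore (H4.LfTrans.sm e H) p, h, Subgroup.map_bot]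

theorem eq_top_of_map {G K : Type*} [Group G] [Group K] (e : G ≃* K) {H : Subgroup G}
    (h : H.map e.toMonoidHom = ⊤) : H = ⊤ := by
  rw [eq_top_iff]
  intro x _
  have h1 : e x ∈ H.map e.toMonoidHom := by rw [h]; exact Subgroup.mem_top _
  obtain ⟨y, hy, hyx⟩ := h1
  rwa [← e.injective hyx]

/-- **Proper overgroups of a Sylow `p`-subgroup.** -/
theorem core_ne_bot_of_sylow [Finite W] [Finite Y] [Fact p.Prime] (R : RGD cs h p T n X)
    (hG : Nodes.RGDLib.G1 cs h X = ⊤) (P : Sylow p Y) {H : Subgroup Y} (hP : (P : Subgroup Y) ≤ H) (hne : H ≠ ⊤) :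
    pCore p H ≠ ⊥ := by
  obtain ⟨S, hS⟩ := H1.RgdRow.exists_sylow R (KFacts.RgdFilt.GG_eq_top hG)
  obtain ⟨g, hg'⟩ := MulAction.exists_smul_eq Y P S
  have hg : (S : Subgroup Y) = (P : Subgroup Y).map (MulAut.conj g).toMonoidHom := by
    rw [← hg', Sylow.coe_subgroup_smul]
    rfl
  have h1 : pCore p ↥(H.map (MulAut.conj g).toMonoidHom) ≠ ⊥ := by
    refine core_ne_bot R hG ?_ ?_
    · rw [← hS, hg]
      exact Subgroup.map_mono hP
    · intro h2
      exact hne (eq_top_of_map _ h2)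
  intro h2
  exact h1 (pCore_map _ p H h2)

/-- the `𝒞`-components of overgroups of a Sylow 2-subgroup of `L₄(2)` -/
theorem four {Y : Type*} [Group Y] [Finite Y] {F : Type*} [Field F] [Fintype F] (h2 : Fintype.card F = 2)
    (e : Y ≃* Matrix.ProjectiveSpecialLinearGroup (Fin 4) F) (S : Sylow 2 Y) {L : Subgroup Y}
    (hL : L.subgroupOf (L ⊔ (S : Subgroup Y)) ∈ calC ↥(L ⊔ (S : Subgroup Y)))
    (hS : ∃ P : Sylow 2 ↥(L ⊔ (S : Subgroup Y)), (P : Subgroup ↥(L ⊔ (S : Subgroup Y))) =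
      (S : Subgroup Y).subgroupOf (L ⊔ (S : Subgroup Y))) :
    (S : Subgroup Y) ≤ Subgroup.normalizer (L : Set Y) ∧
      (L = ⊤ ∨ Nonempty ((L ⧸ pCore 2 L) ≃* Matrix.ProjectiveSpecialLinearGroup (Fin 3) F)) := by
  have h2p : Fact (Nat.Prime 2) := ⟨Nat.prime_two⟩
  have hchar : CharP F 2 := by
    have h3 : Nat.card F = 2 := by rw [Nat.card_eq_fintype_card, h2]
    obtain ⟨p, hp⟩ := CharP.exists F
    obtain ⟨n, hpp, hn⟩ := FiniteField.card F p
    rw [h2] at hn
    have h4 : p ∣ 2 := by rw [hn]; exact dvd_pow_self p n.ne_zero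
    have h5 : p = 2 := (Nat.prime_dvd_prime_iff_eq hpp Nat.prime_two).1 h4
    exact h5 ▸ hp
  by_cases hO : pCore 2 ↥(L ⊔ (S : Subgroup Y)) = ⊥
  · have htop : L ⊔ (S : Subgroup Y) = ⊤ := by
      by_contra hne
      obtain ⟨Φ, hfin, R, -⟩ := H1.RowPSL.exists_filt (F := F) 3
      have : Finite (Matrix.ProjectiveSpecialLinearGroup (Fin (3 + 1)) F) := Quotient.finite _
      have h3 := core_ne_bot_of_sylow R (Nodes.RGDTypeA.G1_psl_eq_top _ _) (H4.LfTrans.mapSylow e S)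
        (H := (L ⊔ (S : Subgroup Y)).map e.toMonoidHom) (by
          rw [H4.LfTrans.coe_mapSylow]
          exact Subgroup.map_mono le_sup_right) (by
          intro h4
          exact hne (eq_top_of_map _ h4))
      exact h3 (pCore_map _ 2 _ hO)
    have hsY : IsSimpleGroup Y := by
      have := H1.RowPSLFive.simple_psl (F := F) 1
      exact (MulEquiv.isSimpleGroup_congr e).2 this
    have hLt : L = ⊤ := by
      obtain ⟨h3, -, h4, -⟩ := hL
      have h5 : L.IsSubnormal := by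
        have h6 := h4.map (f := (L ⊔ (S : Subgroup Y)).subtype) (by
          intro y
          exact ⟨⟨y, by rw [htop]; exact Subgroup.mem_top y⟩, rfl⟩)
        rwa [Subgroup.subgroupOf_map_subtype, inf_eq_left.2 le_sup_left] at h6
      have h6 : L ≠ ⊥ := by
        rintro rfl
        exact h3 (Subgroup.bot_subgroupOf _)
      rcases eq_or_ne L ⊤ with h7 | h7
      · exact h7
      · exact absurd (Cfsg.Agent.H3.RgdTop.eq_bot_of_subnormal h5 h7) h6
    refine ⟨?_, Or.inl hLt⟩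
    rw [hLt, Subgroup.normalizer_eq_top]
    exact le_top
  · obtain ⟨h3, _, h4⟩ := H1.RowPSLFive.row_psl_four h2 e S L ⟨hL, hS, hO⟩
    exact ⟨h3, Or.inr h4⟩

end Cfsg.Agent.H3.RgdTop
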